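import Cfsg.Agent.H379.GG.PGL
import Cfsg.Agent.H360.CC.ParRgd
import Cfsg.Agent.H439.CC.Defs

/-!
# S4884, cross characteristic: the parity `Par2` for `PSL_{n+1}(F)` (helper379)

* `par2_of` : `Par2` from a 2-group of automorphisms without fixed points (helper360's `parity`);
* `sg` : the diagonal matrices with entries `±1` acting on `PSL_{n+1}(F)`;
* `par2_psl` : **(C-psl)** `Par2` for `PSL_{n+1}(F)`, `F` of odd characteristic.
-/

set_option autoImplicit false
set_option linter.unusedSectionVars false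

namespace Cfsg.Agent.H379.CC

open Cfsg Matrix CoxeterSystem Cfsg.Agent.ChevalleyStructure.CoxeterGeom Cfsg.Agent.Tits.Roots Cfsg.Agent.Tits.Core
open Cfsg.Agent.Nodes Cfsg.Agent.Nodes.Reps Cfsg.Agent.Nodes.BNOf Cfsg.Agent.Nodes.RGDLib Cfsg.Agent.Nodes.Bruhat
open Cfsg.Agent.H439.CC (mu Par2)
open Cfsg.Agent.H360.CC (parity)
open Cfsg.Agent.LieRecognition.BNCox (cA)
open Cfsg.Agent.TitsThree.KSideA (tv tv_of_ne tv_add tv_zero tv_neg tv_comm tv_commute)
open Cfsg.Agent.H379.GG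

universe u

section Abs

variable {I W : Type*} {Y : Type u} [Fintype I] [DecidableEq I] [Group W] [Group Y] {M : CoxeterMatrix I}
  {cs : CoxeterSystem M W} {A : I → I → ℤ} {h : IsCartan M A} {p : ℕ} {T : Subgroup Y} {n : I → Y}
  {X : (I → ℤ) → Subgroup Y}

/-- **`Par2` from a 2-group of automorphisms without fixed points** -/
theorem par2_of [Finite W] [Finite Y] [Fact p.Prime] (hp2 : p ≠ 2) (R : RGD cs h p T n X) (hG : GG cs h T X = ⊤)
    {E : Type*} [Group E] (hE : IsPGroup 2 E) (f : E →* MulAut Y)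
    (hX : ∀ e z, IsRoot cs h z → ∀ x ∈ X z, f e x ∈ X z) (hT : ∀ e, ∀ t ∈ T, f e t ∈ T)
    (hfix : ∀ z, IsRoot cs h z → 0 ≤ z → ∀ x ∈ X z, (∀ e, f e x = x) → x = 1) : Par2 cs h T X := by
  classical
  intro χ h0
  have : Fintype (RGD.B cs h T X) := Fintype.ofFinite _
  unfold mu at h0 ⊢
  rw [finsum_eq_sum_of_fintype] at h0 ⊢
  obtain ⟨m, hm, h2⟩ := parity hp2 R hG hE f hX hT hfix χ.2 (right_ne_zero_of_mul h0)
  refine ⟨m, ?_, h2⟩
  have h3 : (Nat.card (RGD.B cs h T X) : ℂ) ≠ 0 := by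
    have : 0 < Nat.card (RGD.B cs h T X) := Nat.card_pos
    exact_mod_cast this.ne'
  rw [hm, inv_mul_cancel_left₀ h3]

end Abs

variable {n : ℕ} {F : Type u} [Field F]

/-- the signs in `Fˣ` -/
def sgn (n : ℕ) (F : Type*) [Field F] : (Fin (n + 1) → ℤˣ) →* (Fin (n + 1) → Fˣ) where
  toFun e i := Units.map (Int.castRingHom F).toMonoidHom (e i)
  map_one' := funext fun _ => map_one _
  map_mul' e e' := funext fun i => map_mul _ _ _

/-- the action of the diagonal matrices with entries `±1` on `PSL_{n+1}(F)` -/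
noncomputable def sg (n : ℕ) (F : Type*) [Field F] :
    (Fin (n + 1) → ℤˣ) →* MulAut (ProjectiveSpecialLinearGroup (Fin (n + 1)) F) :=
  haveI : ((qs n F).range).Normal := normal_range
  ((MulAut.congr (pslEquiv (n := n) (F := F)).symm).toMonoidHom.comp
    (MulAut.conjNormal (H := (qs n F).range))).comp ((dP n F).comp (sgn n F))

theorem pslEquiv_sg (e : Fin (n + 1) → ℤˣ) (y : ProjectiveSpecialLinearGroup (Fin (n + 1)) F) :
    ((pslEquiv (sg n F e y) : ↥(qs n F).range) : PG n F) =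
      dP n F (sgn n F e) * (pslEquiv y : ↥(qs n F).range) * (dP n F (sgn n F e))⁻¹ := by
  have : ((qs n F).range).Normal := normal_range
  have h1 : sg n F e y = pslEquiv.symm (MulAut.conjNormal (dP n F (sgn n F e)) (pslEquiv y)) := rfl
  rw [h1, MulEquiv.apply_symm_apply, MulAut.conjNormal_apply]

theorem pslEquiv_pr (g : SpecialLinearGroup (Fin (n + 1)) F) :
    ((pslEquiv (RGDTypeA.pr n F g) : ↥(qs n F).range) : PG n F) = qs n F g := rfl

theorem pslEquiv_inj {y y' : ProjectiveSpecialLinearGroup (Fin (n + 1)) F}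
    (e : ((pslEquiv y : ↥(qs n F).range) : PG n F) = (pslEquiv y' : ↥(qs n F).range)) : y = y' :=
  pslEquiv.injective (Subtype.ext e)

theorem sg_tv (e : Fin (n + 1) → ℤˣ) {a b : Fin (n + 1)} (hab : a ≠ b) (s : F) :
    sg n F e (RGDTypeA.pr n F (tv a b s)) =
      RGDTypeA.pr n F (tv a b ((sgn n F e a : F) * s * (((sgn n F e b)⁻¹ : Fˣ) : F))) := by
  apply pslEquiv_inj
  rw [pslEquiv_sg, pslEquiv_pr, pslEquiv_pr, dP_conj _ hab]

theorem sg_T (e : Fin (n + 1) → ℤˣ) {t : SpecialLinearGroup (Fin (n + 1)) F} (ht : t ∈ RGDTypeA.T (Fin (n + 1)) F) :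
    sg n F e (RGDTypeA.pr n F t) = RGDTypeA.pr n F t := by
  apply pslEquiv_inj
  rw [pslEquiv_sg, pslEquiv_pr]
  obtain ⟨d, hd⟩ := mem_dT.1 (map_T_le (Subgroup.mem_map_of_mem (qs n F) ht))
  rw [← hd, ← map_mul, ← map_inv, ← map_mul, mul_comm (sgn n F e) d, mul_inv_cancel_right]

theorem isPGroup_sgn (n : ℕ) : IsPGroup 2 (Fin (n + 1) → ℤˣ) := by
  intro e
  refine ⟨1, ?_⟩
  ext i
  rw [Pi.pow_apply, pow_one, Int.units_sq]
  rfl

variable {W : Type*} [Group W] (cs : CoxeterSystem (cA n) W) {A : Fin n → Fin n → ℤ} (h : IsCartan (cA n) A)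

/-- **(C-psl)** -/
theorem par2_psl [Finite W] [Finite F] (hF : (2 : F) ≠ 0) :
    Par2 cs h ((RGDTypeA.T (Fin (n + 1)) F).map (RGDTypeA.pr n F))
      (fun x => (RGDTypeA.X F x).map (RGDTypeA.pr n F)) := by
  obtain ⟨p, hchar⟩ := CharP.exists F
  have hp : Fact p.Prime := ⟨CharP.char_is_prime F p⟩
  have hp2 : p ≠ 2 := by
    rintro rfl
    exact hF (by exact_mod_cast CharP.cast_eq_zero F 2)
  have : Finite (ProjectiveSpecialLinearGroup (Fin (n + 1)) F) := inferInstance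
  have hG : GG cs h ((RGDTypeA.T (Fin (n + 1)) F).map (RGDTypeA.pr n F))
      (fun x => (RGDTypeA.X F x).map (RGDTypeA.pr n F)) = ⊤ := by
    rw [eq_top_iff, ← RGDTypeA.G1_psl_eq_top cs h]
    exact le_sup_right
  refine par2_of hp2 (RGDTypeA.rgd_psl cs h (F := F) (p := p)) hG (isPGroup_sgn n) (sg n F) ?_ ?_ ?_
  · intro e z hz x hx
    obtain ⟨a, b, hab, rfl⟩ := RootsA.exists_of_isRoot cs h hz
    change x ∈ (RGDTypeA.X F (RootsA.rtA a b)).map _ at hx
    change _ ∈ (RGDTypeA.X F (RootsA.rtA a b)).map _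
    rw [RGDTypeA.X_rtA hab] at hx ⊢
    obtain ⟨_, ⟨s, rfl⟩, rfl⟩ := hx
    rw [sg_tv e hab]
    exact Subgroup.mem_map_of_mem _ (RGDTypeA.tv_mem_XX _ _ _)
  · rintro e _ ⟨t, ht, rfl⟩
    rw [sg_T e ht]
    exact Subgroup.mem_map_of_mem _ ht
  · intro z hz _ x hx hfix
    obtain ⟨a, b, hab, rfl⟩ := RootsA.exists_of_isRoot cs h hz
    change x ∈ (RGDTypeA.X F (RootsA.rtA a b)).map _ at hx
    rw [RGDTypeA.X_rtA hab] at hx
    obtain ⟨_, ⟨s, rfl⟩, rfl⟩ := hx
    have h1 := hfix (Pi.mulSingle a (-1))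
    rw [sg_tv _ hab] at h1
    have h2 := congrArg (fun y => ((pslEquiv y : ↥(qs n F).range) : PG n F)) h1
    have h3 := qs_tv_inj hab h2
    have ea : ((sgn n F (Pi.mulSingle a (-1)) a : Fˣ) : F) = -1 := by
      change ((((Pi.mulSingle a (-1) : Fin (n + 1) → ℤˣ) a : ℤˣ) : ℤ) : F) = -1
      rw [Pi.mulSingle_eq_same]
      push_cast
      rfl
    have eb : (((sgn n F (Pi.mulSingle a (-1)) b)⁻¹ : Fˣ) : F) = 1 := by
      have : sgn n F (Pi.mulSingle a (-1)) b = 1 := by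
        change Units.map _ ((Pi.mulSingle a (-1) : Fin (n + 1) → ℤˣ) b) = 1
        rw [Pi.mulSingle_eq_of_ne hab.symm, map_one]
      rw [this, inv_one, Units.val_one]
    rw [ea, eb] at h3
    have h4 : (2 : F) * s = 0 := by linear_combination -h3
    rw [(mul_eq_zero.1 h4).resolve_left hF, tv_zero, map_one]

end Cfsg.Agent.H379.CC
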